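import Mathlib
import Cfsg.Agent.Lib.Helper23.Transitivity

/-!
Uniqueness of the maximal subgroup above a `p`-subgroup `A`, given a "characteristic
normalizer" function `N` on `p`-subgroups such that every proper subgroup `X` containing a
conjugate of `A` lies in `N S` for its Sylow `p`-subgroups `S` (helper72; Bender–Glauberman,
proof of Theorem 8.1(b)).
-/

set_option autoImplicit false

namespace Cfsg.Agent.Lib.Helper72.BG8

open Cfsg Cfsg.Agent.Lib.Helper23

universe u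

variable {G : Type u} [Group G]

/-- `A` has a conjugate inside `X`. -/
def ConjLe (A X : Subgroup G) : Prop := ∃ g : G, A.map (MulAut.conj g).toMonoidHom ≤ X

theorem conjLe_mono {A X Y : Subgroup G} (h : ConjLe A X) (hXY : X ≤ Y) : ConjLe A Y := by
  obtain ⟨g, hg⟩ := h
  exact ⟨g, hg.trans hXY⟩

theorem conjLe_of_le {A X : Subgroup G} (h : A ≤ X) : ConjLe A X :=
  ⟨1, by rw [mapConj_one]; exact h⟩

variable [Finite G]

theorem dvd_card_of_conjLe {p : ℕ} [Fact p.Prime] {A X : Subgroup G} (hAp : IsPGroup p A)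
    (hA1 : A ≠ ⊥) (h : ConjLe A X) : p ∣ Nat.card X := by
  obtain ⟨g, hg⟩ := h
  have h1 : Nat.card (A.map (MulAut.conj g).toMonoidHom) ∣ Nat.card X :=
    Subgroup.card_dvd_of_le hg
  rw [card_mapConj] at h1
  obtain ⟨n, hn⟩ := IsPGroup.iff_card.mp hAp
  have hn0 : n ≠ 0 := by
    rintro rfl
    rw [pow_zero] at hn
    exact hA1 (Subgroup.card_eq_one.mp hn)
  exact (hn ▸ dvd_pow_self p hn0).trans h1

theorem ne_bot_of_conjLe {p : ℕ} [Fact p.Prime] {A X : Subgroup G} (hAp : IsPGroup p A)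
    (hA1 : A ≠ ⊥) (h : ConjLe A X) : X ≠ ⊥ := by
  rintro rfl
  have h1 := dvd_card_of_conjLe hAp hA1 h
  rw [Subgroup.card_bot] at h1
  exact (Fact.out : p.Prime).one_lt.ne' (Nat.dvd_one.mp h1)

/-- A `p`-subgroup of a subgroup `H` containing a Sylow `p`-subgroup of `G` lies in a Sylow
`p`-subgroup of `G` inside `H`. -/
theorem exists_sylow_between {p : ℕ} [Fact p.Prime] (H : Subgroup G) (P : Sylow p G)
    (hPH : (P : Subgroup G) ≤ H) (U : Subgroup G) (hU : IsPGroup p U) (hUH : U ≤ H) :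
    ∃ P' : Sylow p G, U ≤ (P' : Subgroup G) ∧ (P' : Subgroup G) ≤ H := by
  have hU' : IsPGroup p (U.subgroupOf H) := hU.comap_of_injective H.subtype H.subtype_injective
  obtain ⟨Q, hQ⟩ := hU'.exists_le_sylow
  have hTp : IsPGroup p ((Q : Subgroup H).map H.subtype) := Q.isPGroup'.map _
  obtain ⟨P', hP'⟩ := hTp.exists_le_sylow
  have hc1 : Nat.card ((Q : Subgroup H).map H.subtype) = Nat.card (P' : Subgroup G) := by
    rw [Subgroup.card_map_of_injective H.subtype_injective]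
    have h1 : Nat.card (Q : Subgroup H) = Nat.card ((P.subtype hPH : Sylow p H) : Subgroup H) := by
      rw [Sylow.card_eq_multiplicity, Sylow.card_eq_multiplicity]
    rw [h1, Sylow.coe_subtype, Cfsg.Agent.Lib.Helper1.card_subgroupOf_of_le hPH,
      Sylow.card_eq_multiplicity, Sylow.card_eq_multiplicity]
  have heq : (Q : Subgroup H).map H.subtype = (P' : Subgroup G) :=
    Subgroup.eq_of_le_of_card_ge hP' hc1.ge
  refine ⟨P', ?_, ?_⟩
  · intro u hu
    rw [← heq]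
    exact ⟨⟨u, hUH hu⟩, hQ (Subgroup.mem_subgroupOf.mpr hu), rfl⟩
  · rw [← heq]
    exact Subgroup.map_subtype_le _

section Uniq

variable {p : ℕ} [Fact p.Prime] (A : Subgroup G) (hAp : IsPGroup p A) (hA1 : A ≠ ⊥)
  (N : Subgroup G → Subgroup G)
  (h1 : ∀ S : Subgroup G, IsPGroup p S → S ≠ ⊥ → N S ≠ ⊤)
  (h2 : ∀ S : Subgroup G, Subgroup.normalizer (S : Set G) ≤ N S)
  (h3 : ∀ X : Subgroup G, X ≠ ⊤ → ConjLe A X → ∀ S : Sylow p X,
    X ≤ N ((S : Subgroup X).map X.subtype))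

include hAp hA1 h1 h2 h3

theorem exists_sylow_le_N : ∀ X : Subgroup G, X ≠ ⊤ → ConjLe A X →
    ∃ P : Sylow p G, X ≤ N (P : Subgroup G) := by
  intro X
  induction' hn : Nat.card G - Nat.card X using Nat.strong_induction_on with n ih generalizing X
  intro hX hAX
  obtain ⟨S⟩ : Nonempty (Sylow p X) := inferInstance
  obtain ⟨T, hT⟩ : ∃ T : Subgroup G, T = (S : Subgroup X).map X.subtype := ⟨_, rfl⟩
  have hXN : X ≤ N T := hT ▸ h3 X hX hAX S
  have hTp : IsPGroup p T := hT ▸ S.isPGroup'.map _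
  have hTX : T ≤ X := hT ▸ Subgroup.map_subtype_le _
  have hT1 : T ≠ ⊥ := by
    intro h
    rw [hT, Subgroup.map_eq_bot_iff_of_injective _ X.subtype_injective] at h
    exact S.ne_bot_of_dvd_card (dvd_card_of_conjLe hAp hA1 hAX) h
  have hNT : N T ≠ ⊤ := h1 T hTp hT1
  obtain ⟨Q, hQ⟩ := hTp.exists_le_sylow
  by_cases hTQ : T = Q
  · exact ⟨Q, hTQ ▸ hXN⟩
  · have hlt : T < Q := lt_of_le_of_ne hQ hTQ
    have h4 := lt_inf_normalizer_of_pGroup Q.isPGroup' hlt
    have hS1N : (Q : Subgroup G) ⊓ Subgroup.normalizer (T : Set G) ≤ N T :=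
      inf_le_right.trans (h2 T)
    have hS1X : ¬ ((Q : Subgroup G) ⊓ Subgroup.normalizer (T : Set G) ≤ X) := by
      intro hle
      have hp1 : IsPGroup p (((Q : Subgroup G) ⊓ Subgroup.normalizer (T : Set G)).subgroupOf X) :=
        (Q.isPGroup'.to_le inf_le_left).comap_of_injective X.subtype X.subtype_injective
      have hle2 : (S : Subgroup X) ≤
          ((Q : Subgroup G) ⊓ Subgroup.normalizer (T : Set G)).subgroupOf X := by
        intro s hs
        rw [Subgroup.mem_subgroupOf]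
        apply h4.le
        rw [hT]
        exact ⟨s, hs, rfl⟩
      have heq := S.is_maximal' hp1 hle2
      apply h4.not_ge
      intro x hx
      have hx' : (⟨x, hle hx⟩ : X) ∈ (S : Subgroup X) := by
        rw [← heq, Subgroup.mem_subgroupOf]
        exact hx
      rw [hT]
      exact ⟨⟨x, hle hx⟩, hx', rfl⟩
    have hne : X ≠ N T := fun h => hS1X (h ▸ hS1N)
    have hcard : Nat.card X < Nat.card (N T) := by
      by_contra hcon
      push Not at hcon
      exact hne (Subgroup.eq_of_le_of_card_ge hXN hcon)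
    have hle3 : Nat.card (N T) ≤ Nat.card G := Subgroup.card_le_card_group _
    obtain ⟨P, hP⟩ := ih (Nat.card G - Nat.card (N T)) (by omega) (N T) rfl hNT
      (conjLe_mono hAX hXN)
    exact ⟨P, hXN.trans hP⟩

theorem sylow_ne_bot_aux (P : Sylow p G) : (P : Subgroup G) ≠ ⊥ := by
  apply P.ne_bot_of_dvd_card
  exact dvd_card_of_conjLe hAp hA1 (conjLe_of_le (le_top : A ≤ ⊤)) |>.trans
    (by rw [Subgroup.card_top])

theorem conjLe_sylow (P : Sylow p G) : ConjLe A (P : Subgroup G) := by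
  obtain ⟨Q, hQ⟩ := hAp.exists_le_sylow
  obtain ⟨g, hg⟩ := MulAction.exists_smul_eq G Q P
  refine ⟨g, ?_⟩
  rw [← hg]
  exact Subgroup.map_mono hQ

theorem sylow_N_max (P : Sylow p G) :
    N (P : Subgroup G) ≠ ⊤ ∧ ∀ L : Subgroup G, L ≠ ⊤ → (P : Subgroup G) ≤ L →
      L ≤ N (P : Subgroup G) := by
  refine ⟨h1 _ P.isPGroup' (sylow_ne_bot_aux A hAp hA1 N h1 h2 h3 P), ?_⟩
  intro L hL hPL
  have hAL : ConjLe A L := conjLe_mono (conjLe_sylow A hAp hA1 N h1 h2 h3 P) hPL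
  have h5 := h3 L hL hAL (P.subtype hPL)
  rw [Sylow.coe_subtype, Subgroup.map_subgroupOf_eq_of_le hPL] at h5
  exact h5

theorem N_eq_of_conjLe_inf : ∀ P₁ P₂ : Sylow p G,
    ConjLe A ((P₁ : Subgroup G) ⊓ (P₂ : Subgroup G)) →
    N (P₁ : Subgroup G) = N (P₂ : Subgroup G) := by
  intro P₁ P₂
  induction' hn : Nat.card (P₁ : Subgroup G) -
    Nat.card ((P₁ : Subgroup G) ⊓ (P₂ : Subgroup G) : Subgroup G) using
    Nat.strong_induction_on with n ih generalizing P₁ P₂
  intro hA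
  obtain ⟨D, hD⟩ : ∃ D : Subgroup G, D = (P₁ : Subgroup G) ⊓ (P₂ : Subgroup G) := ⟨_, rfl⟩
  rw [← hD] at hA hn
  have hDP₁ : D ≤ (P₁ : Subgroup G) := hD ▸ inf_le_left
  have hDP₂ : D ≤ (P₂ : Subgroup G) := hD ▸ inf_le_right
  by_cases hD1 : D = P₁
  · have hle : (P₁ : Subgroup G) ≤ P₂ := hD1 ▸ hDP₂
    have h5 := P₁.is_maximal' P₂.isPGroup' hle
    rw [h5]
  · have hlt1 : D < P₁ := lt_of_le_of_ne hDP₁ hD1
    have hD2 : D ≠ P₂ := by
      intro h
      have hle : (P₂ : Subgroup G) ≤ P₁ := h ▸ hDP₁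
      have h5 := P₂.is_maximal' P₁.isPGroup' hle
      apply hD1
      rw [hD, h5, inf_idem]
    have hlt2 : D < P₂ := lt_of_le_of_ne hDP₂ hD2
    have hn1 := lt_inf_normalizer_of_pGroup P₁.isPGroup' hlt1
    have hn2 := lt_inf_normalizer_of_pGroup P₂.isPGroup' hlt2
    have hDp : IsPGroup p D := P₁.isPGroup'.to_le hDP₁
    have hDne : D ≠ ⊥ := ne_bot_of_conjLe hAp hA1 hA
    have hXtop : Subgroup.normalizer (D : Set G) ≠ ⊤ := fun h =>
      h1 D hDp hDne (top_le_iff.mp (h ▸ h2 D))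
    have hAX : ConjLe A (Subgroup.normalizer (D : Set G)) := conjLe_mono hA Subgroup.le_normalizer
    obtain ⟨P₃, hP₃⟩ := exists_sylow_le_N A hAp hA1 N h1 h2 h3 _ hXtop hAX
    have hP₃N : (P₃ : Subgroup G) ≤ N (P₃ : Subgroup G) := Subgroup.le_normalizer.trans (h2 _)
    have hcardD : Nat.card D ≤ Nat.card (P₁ : Subgroup G) := Subgroup.card_le_of_le hDP₁
    have key : ∀ P : Sylow p G, D < (P : Subgroup G) ⊓ Subgroup.normalizer (D : Set G) →
        N (P : Subgroup G) = N (P₃ : Subgroup G) := by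
      intro P hlt
      obtain ⟨P₄, hP₄1, hP₄2⟩ := exists_sylow_between (N (P₃ : Subgroup G)) P₃ hP₃N
        ((P : Subgroup G) ⊓ Subgroup.normalizer (D : Set G)) (P.isPGroup'.to_le inf_le_left)
        (inf_le_right.trans hP₃)
      have hm3 := sylow_N_max A hAp hA1 N h1 h2 h3 P₃
      have hm4 := sylow_N_max A hAp hA1 N h1 h2 h3 P₄
      have e34 : N (P₄ : Subgroup G) = N (P₃ : Subgroup G) :=
        le_antisymm (hm3.2 _ hm4.1 (hP₃N.trans (hm4.2 _ hm3.1 hP₄2))) (hm4.2 _ hm3.1 hP₄2)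
      rw [← e34]
      have hle4 : (P : Subgroup G) ⊓ Subgroup.normalizer (D : Set G) ≤
          (P : Subgroup G) ⊓ (P₄ : Subgroup G) := le_inf inf_le_left hP₄1
      have hc1 : Nat.card D < Nat.card ((P : Subgroup G) ⊓ (P₄ : Subgroup G) : Subgroup G) := by
        by_contra hcon
        push Not at hcon
        have := Subgroup.eq_of_le_of_card_ge (hlt.le.trans hle4) hcon
        exact hlt.not_ge (this ▸ hle4)
      have hc2 : Nat.card ((P : Subgroup G) ⊓ (P₄ : Subgroup G) : Subgroup G) ≤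
          Nat.card (P : Subgroup G) := Subgroup.card_le_of_le inf_le_left
      have hc3 : Nat.card (P : Subgroup G) = Nat.card (P₁ : Subgroup G) := by
        rw [Sylow.card_eq_multiplicity, Sylow.card_eq_multiplicity]
      apply ih (Nat.card (P : Subgroup G) -
        Nat.card ((P : Subgroup G) ⊓ (P₄ : Subgroup G) : Subgroup G)) ?_ P P₄ rfl
      · exact conjLe_mono hA (hlt.le.trans hle4)
      · omega
    rw [key P₁ hn1, key P₂ hn2]

theorem coatom_eq_N (L : Subgroup G) (hL : IsCoatom L) (hAL : A ≤ L) :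
    ∃ P : Sylow p G, A ≤ (P : Subgroup G) ∧ L = N (P : Subgroup G) := by
  obtain ⟨P₁, hP₁⟩ := exists_sylow_le_N A hAp hA1 N h1 h2 h3 L hL.1 (conjLe_of_le hAL)
  have hm1 := sylow_N_max A hAp hA1 N h1 h2 h3 P₁
  have hL1 : L = N (P₁ : Subgroup G) := by
    by_contra hne
    exact hm1.1 (hL.2 _ (lt_of_le_of_ne hP₁ hne))
  have hP₁L : (P₁ : Subgroup G) ≤ L := by
    rw [hL1]
    exact Subgroup.le_normalizer.trans (h2 _)
  obtain ⟨P₂, hP₂1, hP₂2⟩ := exists_sylow_between L P₁ hP₁L A hAp hAL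
  have hm2 := sylow_N_max A hAp hA1 N h1 h2 h3 P₂
  refine ⟨P₂, hP₂1, ?_⟩
  by_contra hne
  exact hm2.1 (hL.2 _ (lt_of_le_of_ne (hm2.2 L hL.1 hP₂2) hne))

/-- The abstract uniqueness theorem. -/
theorem unique_max_of_sylow_N (L L' : Subgroup G) (hL : IsCoatom L) (hL' : IsCoatom L')
    (hAL : A ≤ L) (hAL' : A ≤ L') : L = L' := by
  obtain ⟨P, hP, rfl⟩ := coatom_eq_N A hAp hA1 N h1 h2 h3 L hL hAL
  obtain ⟨P', hP', rfl⟩ := coatom_eq_N A hAp hA1 N h1 h2 h3 L' hL' hAL'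
  exact N_eq_of_conjLe_inf A hAp hA1 N h1 h2 h3 P P' (conjLe_of_le (le_inf hP hP'))

end Uniq

end Cfsg.Agent.Lib.Helper72.BG8
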